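import Mathlib
import Cfsg.Prelude.Def_LieRecognition

/-! The rank-one set-up: regular action of Q, involutions, and elements of D inverted by t. -/

set_option autoImplicit false

namespace Cfsg.Agent.RankOne

open MulAction

variable {G : Type*} [Group G]

/-! ### elements of odd order -/

theorem root_sq {x : G} (h : Odd (orderOf x)) : (x ^ ((orderOf x + 1) / 2)) ^ 2 = x := by
  obtain ⟨k, hk⟩ := h
  rw [← pow_mul]
  have : (orderOf x + 1) / 2 * 2 = orderOf x + 1 := by omega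
  rw [this, pow_succ, pow_orderOf_eq_one, one_mul]

theorem odd_orderOf_mem [Finite G] {X : Subgroup G} (hX : Odd (Nat.card X)) {x : G} (hx : x ∈ X) :
    Odd (orderOf x) :=
  hX.of_dvd_nat (X.orderOf_dvd_natCard hx)

theorem eq_of_sq_eq [Finite G] {X : Subgroup G} (hX : Odd (Nat.card X)) {x y : G} (hx : x ∈ X)
    (hy : y ∈ X) (h : x ^ 2 = y ^ 2) : x = y := by
  obtain ⟨k, hk⟩ := hX
  have e : ∀ z ∈ X, (z ^ 2) ^ (k + 1) = z := by
    intro z hz
    rw [← pow_mul, show 2 * (k + 1) = Nat.card X + 1 by omega, pow_succ]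
    have : z ^ Nat.card X = 1 := orderOf_dvd_iff_pow_eq_one.1 (X.orderOf_dvd_natCard hz)
    rw [this, one_mul]
  rw [← e x hx, h, e y hy]

theorem invol_conj_inv {u v : G} (hu : u * u = 1) (hv : v * v = 1) (k : ℕ) :
    v * (u * v) ^ k * v = ((u * v) ^ k)⁻¹ := by
  have hui : u⁻¹ = u := inv_eq_of_mul_eq_one_right hu
  have hvi : v⁻¹ = v := inv_eq_of_mul_eq_one_right hv
  have h := (conj_pow (i := k) (a := v) (b := u * v)).symm
  rw [hvi] at h
  rw [h, ← inv_pow, mul_inv_rev, hui, hvi, mul_assoc v, mul_assoc u, hv, mul_one]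

/-- two involutions whose product has odd order are conjugate -/
theorem conj_of_odd {u v : G} (hu : u * u = 1) (hv : v * v = 1) (h : Odd (orderOf (u * v))) :
    ∃ g : G, g * v * g⁻¹ = u := by
  set w := (u * v) ^ ((orderOf (u * v) + 1) / 2) with hw
  have hw2 : w ^ 2 = u * v := root_sq h
  have hvw : v * w⁻¹ = w * v := by
    rw [hw, ← invol_conj_inv hu hv, ← mul_assoc, ← mul_assoc, hv, one_mul]
  refine ⟨w, ?_⟩
  rw [mul_assoc, hvw, ← mul_assoc, ← pow_two, hw2, mul_assoc, hv, mul_one]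

/-- an involution pair with product of even order has a common commuting involution -/
theorem exists_commuting [Finite G] {u v : G} (hu : u * u = 1) (hv : v * v = 1)
    (h : Even (orderOf (u * v))) :
    ∃ z : G, z ≠ 1 ∧ z * z = 1 ∧ Commute z u ∧ Commute z v := by
  obtain ⟨k, hk⟩ := h
  have hpos := orderOf_pos (u * v)
  set z := (u * v) ^ k with hz
  have hz2 : z * z = 1 := by rw [hz, ← pow_add, ← hk, pow_orderOf_eq_one]
  have hz1 : z ≠ 1 := pow_ne_one_of_lt_orderOf (by omega) (by omega)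
  have hzv : Commute z v := by
    have := invol_conj_inv hu hv k
    rw [← hz, inv_eq_of_mul_eq_one_right hz2] at this
    have e := congrArg (· * v) this
    simp only [mul_assoc, hv, mul_one] at e
    exact e.symm
  refine ⟨z, hz1, hz2, ?_, hzv⟩
  have : Commute z (u * v) := (Commute.pow_self (u * v) k)
  have h2 := this.mul_right hzv
  rwa [mul_assoc, hv, mul_one] at h2

theorem move_fix {Ω : Type*} [MulAction G Ω] {g x : G} {c d : Ω} (hg : g • c = d) (hx : x • c = c) :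
    (g * x * g⁻¹) • d = d := by
  subst hg; rw [mul_smul, mul_smul, inv_smul_smul, hx]

/-! ### the set-up -/

variable {Ω : Type*} [MulAction G Ω] [Finite G] {a : Ω} {t : G} {Q : Subgroup G}
  (hS : Cfsg.IsRankOneSetup G Ω a t Q)

include hS

local notation "D" => (stabilizer G a ⊓ stabilizer G (t • a))
local notation "J" => Cfsg.involutionsIn (stabilizer G a : Set G)
local notation "I" => Cfsg.invertedBy D t

omit [Finite G] in
theorem ne_b : t • a ≠ a := fun h => hS.not_mem h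

omit [Finite G] in
theorem t_b : t • (t • a) = a := by rw [smul_smul, hS.mul_self, one_smul]

omit [Finite G] in
theorem t_inv : t⁻¹ = t := inv_eq_of_mul_eq_one_right hS.mul_self

omit [Finite G] in
theorem exists_move {c d : Ω} (h : c ≠ d) {c' d' : Ω} (h' : c' ≠ d') :
    ∃ g : G, g • c = c' ∧ g • d = d' :=
  MulAction.is_two_pretransitive_iff.1 hS.two_transitive h h'

omit [Finite G] in
theorem exists_move_one (c c' : Ω) : ∃ g : G, g • c = c' := by
  have hne : ∀ x : Ω, ∃ y, x ≠ y := by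
    intro x
    rcases eq_or_ne x a with rfl | hx
    · exact ⟨t • x, (ne_b hS).symm⟩
    · exact ⟨a, hx⟩
  obtain ⟨y, hy⟩ := hne c
  obtain ⟨y', hy'⟩ := hne c'
  obtain ⟨g, hg, -⟩ := exists_move hS hy hy'
  exact ⟨g, hg⟩

theorem finite_points : Finite Ω :=
  Finite.of_surjective (fun g : G => g • a) fun c => exists_move_one hS a c

omit [Finite G] in
theorem mem_D {g : G} : g ∈ D ↔ g • a = a ∧ g • (t • a) = t • a := Iff.rfl

omit [Finite G] in
theorem conj_mem_D {g : G} (hg : g ∈ D) : t * g * t ∈ D := by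
  obtain ⟨h1, h2⟩ := hg
  refine ⟨?_, ?_⟩
  · show (t * g * t) • a = a
    rw [mul_smul, mul_smul, h2, t_b hS]
  · show (t * g * t) • (t • a) = t • a
    rw [mul_smul, mul_smul, t_b hS, h1]

omit [Finite G] in
theorem conj_Q {g q : G} (hg : g ∈ stabilizer G a) (hq : q ∈ Q) : g⁻¹ * q * g ∈ Q := by
  have := hS.conj_mem g⁻¹ (inv_mem hg) q hq
  rwa [inv_inv] at this

omit [Finite G] in
theorem factor {g : G} (hg : g ∈ stabilizer G a) : ∃ q ∈ Q, ∃ d ∈ D, g = q * d := by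
  have hDQ : D ≤ Subgroup.normalizer (Q : Set G) := by
    intro d hd
    rw [Subgroup.mem_normalizer_iff]
    refine fun x => ⟨fun hx => hS.conj_mem d hd.1 x hx, fun hx => ?_⟩
    have := conj_Q hS hd.1 hx
    simpa [mul_assoc] using this
  rw [← hS.sup_eq, ← SetLike.mem_coe, Subgroup.coe_mul_of_right_le_normalizer_left _ _ hDQ, Set.mem_mul] at hg
  obtain ⟨q, hq, d, hd, rfl⟩ := hg
  exact ⟨q, hq, d, hd, rfl⟩

omit [Finite G] in
theorem Q_free {c : Ω} (hc : c ≠ a) {x : G} (hx : x ∈ Q) (hfix : x • c = c) : x = 1 := by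
  obtain ⟨g, hg1, hg2⟩ := exists_move hS (ne_b hS).symm hc.symm
  have hy : g⁻¹ * x * g ∈ Q ⊓ stabilizer G (t • a) := by
    refine ⟨conj_Q hS hg1 hx, ?_⟩
    show (g⁻¹ * x * g) • (t • a) = t • a
    rw [mul_smul, mul_smul, hg2, hfix, inv_smul_eq_iff, hg2]
  rw [hS.inf_eq_bot, Subgroup.mem_bot] at hy
  have : g * (g⁻¹ * x * g) * g⁻¹ = g * 1 * g⁻¹ := by rw [hy]
  simpa [mul_assoc] using this

omit [Finite G] in
theorem Q_move {b c : Ω} (hb : b ≠ a) (hc : c ≠ a) : ∃! x : Q, (x : G) • b = c := by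
  have h : ∀ c : Ω, c ≠ a → ∃ x ∈ Q, x • (t • a) = c := by
    intro c hc
    obtain ⟨g, hg1, hg2⟩ := exists_move hS (ne_b hS).symm hc.symm
    obtain ⟨q, hq, d, hd, rfl⟩ := factor hS (mem_stabilizer_iff.2 hg1)
    exact ⟨q, hq, by rw [← hg2, mul_smul, hd.2]⟩
  obtain ⟨x, hx, hxc⟩ := h c hc
  obtain ⟨y, hy, hyb⟩ := h b hb
  refine ⟨⟨x * y⁻¹, mul_mem hx (inv_mem hy)⟩, ?_, ?_⟩
  · show (x * y⁻¹) • b = c
    rw [← hyb, smul_smul, inv_mul_cancel_right, hxc]
  · rintro ⟨z, hz⟩ hzb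
    apply Subtype.ext
    show z = x * y⁻¹
    have h1 : (x * y⁻¹)⁻¹ * z = 1 := by
      refine Q_free hS hb (mul_mem (inv_mem (mul_mem hx (inv_mem hy))) hz) ?_
      rw [mul_smul, hzb, inv_smul_eq_iff, ← hyb, smul_smul, inv_mul_cancel_right, hxc]
    exact (inv_mul_eq_one.1 h1).symm

theorem card_points : Nat.card Ω = Nat.card Q + 1 := by
  have := finite_points hS
  classical
  have e : Q ≃ {c : Ω // c ≠ a} := Equiv.ofBijective
    (fun x => ⟨(x : G) • (t • a), fun h => ne_b hS (by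
      have hx : (x : G) • a = a := hS.le x.2
      exact smul_left_cancel _ (h.trans hx.symm))⟩)
    ⟨fun x y h => (Q_move hS (ne_b hS) (c := (y : G) • (t • a)) (fun h' => ne_b hS
        (smul_left_cancel _ (h'.trans (hS.le y.2).symm)))).unique (congrArg Subtype.val h) rfl,
      fun c => by
        obtain ⟨x, hx, -⟩ := Q_move hS (ne_b hS) c.2
        exact ⟨x, Subtype.ext hx⟩⟩
  rw [Nat.card_congr e, ← Nat.card_congr (Equiv.optionSubtypeNe a), Finite.card_option]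

theorem odd_points : Odd (Nat.card Ω) := by
  rw [card_points hS]; exact hS.even_card.add_one

theorem card_stab : Nat.card ↥(stabilizer G a) = Nat.card Q * Nat.card ↥D := by
  rw [← Nat.card_prod]
  refine (Nat.card_congr (Equiv.ofBijective
    (fun p : Q × ↥D => (⟨(p.1 : G) * p.2, mul_mem (hS.le p.1.2) p.2.2.1⟩ : ↥(stabilizer G a)))
    ⟨?_, ?_⟩)).symm
  · rintro ⟨q, d⟩ ⟨q', d'⟩ h
    have h' : (q : G) * d = q' * d' := congrArg Subtype.val h
    have hq : q = q' := (Q_move hS (ne_b hS) (c := (q' : G) • (t • a)) (fun h'' => ne_b hS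
      (smul_left_cancel _ (h''.trans (hS.le q'.2).symm)))).unique (by
        have := congrArg (· • (t • a)) h'
        simp only [mul_smul, (mem_D hS).1 d.2, (mem_D hS).1 d'.2] at this
        exact this) rfl
    subst hq
    rw [Prod.mk.injEq]
    exact ⟨rfl, Subtype.ext (mul_left_cancel h')⟩
  · rintro ⟨g, hg⟩
    obtain ⟨q, hq, d, hd, rfl⟩ := factor hS hg
    exact ⟨(⟨q, hq⟩, ⟨d, hd⟩), rfl⟩

theorem card_group : Nat.card G = Nat.card Q * Nat.card ↥D * (Nat.card Q + 1) := by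
  have : IsPretransitive G Ω := ⟨exists_move_one hS⟩
  have := finite_points hS
  rw [← card_stab hS, ← card_points hS, ← (stabilizer G a).card_mul_index,
    index_stabilizer_of_transitive G a]

/-- involutions of the point stabiliser lie in Q -/
theorem invol_mem {s : G} (hs : s ∈ stabilizer G a) (h2 : s * s = 1) : s ∈ Q := by
  obtain ⟨q, hq, d, hd, rfl⟩ := factor hS hs
  suffices hd2 : d ^ 2 = 1 by
    have : d = 1 := eq_of_sq_eq hS.odd_card hd (one_mem _) (by rw [hd2, one_pow])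
    rw [this, mul_one]; exact hq
  have hdd : d * d ∈ Q := by
    have e2 : q * (d * q * d⁻¹) * (d * d) = 1 := by rw [← h2]; group
    have : d * d = (q * (d * q * d⁻¹))⁻¹ := eq_inv_of_mul_eq_one_right e2
    rw [this]; exact inv_mem (mul_mem hq (hS.conj_mem d hd.1 q hq))
  have : d * d ∈ Q ⊓ stabilizer G (t • a) := ⟨hdd, (mul_mem hd hd).2⟩
  rw [hS.inf_eq_bot, Subgroup.mem_bot] at this
  rw [pow_two]; exact this

/-- an involution fixes exactly one point -/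
theorem invol_fix {z : G} (h1 : z ≠ 1) (h2 : z * z = 1) : ∃! c : Ω, z • c = c := by
  have := finite_points hS
  classical
  have := Fintype.ofFinite Ω
  obtain ⟨c, hc⟩ : ∃ c : Ω, z • c = c := by
    by_contra hcon
    push Not at hcon
    have h2z : Function.Involutive (fun c : Ω => z • c) := fun c => by
      show z • z • c = c
      rw [smul_smul, h2, one_smul]
    have hev : Even (Fintype.card Ω) := by
      have hsum : (∑ _c : Ω, (1 : ZMod 2)) = 0 :=
        Finset.sum_involution (fun c _ => z • c) (fun c _ => by decide) (fun c _ _ => hcon c)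
          (fun c _ => Finset.mem_univ _) (fun c _ => h2z c)
      simp only [Finset.sum_const, Finset.card_univ, nsmul_eq_mul, mul_one] at hsum
      exact even_iff_two_dvd.2 ((ZMod.natCast_eq_zero_iff _ _).1 hsum)
    have hodd := odd_points hS
    rw [Nat.card_eq_fintype_card] at hodd
    exact Nat.not_even_iff_odd.2 hodd hev
  refine ⟨c, hc, fun d hd => ?_⟩
  by_contra hdc
  obtain ⟨g, hg⟩ := exists_move_one hS c a
  have hm : g * z * g⁻¹ ∈ stabilizer G a := by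
    show (g * z * g⁻¹) • a = a
    rw [← hg, mul_smul, mul_smul, inv_smul_smul, hc]
  have hq := invol_mem hS hm (by rw [show g * z * g⁻¹ * (g * z * g⁻¹) = g * (z * z) * g⁻¹ by group, h2]; group)
  have hne : g • d ≠ a := fun h => hdc (smul_left_cancel g (h.trans hg.symm))
  have := Q_free hS hne hq (by rw [mul_smul, mul_smul, inv_smul_smul, hd])
  exact h1 (conj_eq_one_iff.1 this)

theorem invol_fix_eq {z : G} (h1 : z ≠ 1) (h2 : z * z = 1) {c d : Ω} (hc : z • c = c)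
    (hd : z • d = d) : c = d :=
  (invol_fix hS h1 h2).unique hc hd

theorem odd_outside {s u : G} (hs : s ∈ stabilizer G a) (hs1 : s ≠ 1) (hs2 : s * s = 1)
    (hu : u ∉ stabilizer G a) (hu2 : u * u = 1) : Odd (orderOf (s * u)) := by
  rw [← Nat.not_even_iff_odd]
  intro he
  obtain ⟨z, hz1, hz2, hzs, hzu⟩ := exists_commuting hs2 hu2 he
  have h1 : z • a = a := by
    refine invol_fix_eq hS hs1 hs2 ?_ hs
    rw [smul_smul, ← hzs.eq, mul_smul, (hs : s • a = a)]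
  apply hu
  show u • a = a
  refine invol_fix_eq hS hz1 hz2 ?_ h1
  rw [smul_smul, hzu.eq, mul_smul, h1]

theorem all_conj {u v : G} (hu1 : u ≠ 1) (hu2 : u * u = 1) (hv1 : v ≠ 1) (hv2 : v * v = 1) :
    ∃ g : G, g * u * g⁻¹ = v := by
  have key : ∀ s w : G, s ≠ 1 → s * s = 1 → w ≠ 1 → w * w = 1 →
      ∀ c d : Ω, s • c = c → w • d = d → c ≠ d → ∃ g : G, g * w * g⁻¹ = s := by
    intro s w hs1 hs2 hw1 hw2 c d hc hd hcd
    obtain ⟨g, hg⟩ := exists_move_one hS c a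
    have hsq : ∀ x : G, x * x = 1 → g * x * g⁻¹ * (g * x * g⁻¹) = 1 := fun x hx => by
      rw [show g * x * g⁻¹ * (g * x * g⁻¹) = g * (x * x) * g⁻¹ by group, hx]; group
    have ho : Odd (orderOf ((g * s * g⁻¹) * (g * w * g⁻¹))) := by
      refine odd_outside hS ?_ (fun h => hs1 (conj_eq_one_iff.1 h)) (hsq s hs2) ?_ (hsq w hw2)
      · show (g * s * g⁻¹) • a = a
        rw [← hg, mul_smul, mul_smul, inv_smul_smul, hc]
      · intro h
        apply hcd
        have hwc : w • c = c := by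
          have h' : (g * w * g⁻¹) • a = a := h
          rw [← hg, mul_smul, mul_smul, inv_smul_smul] at h'
          exact smul_left_cancel g h'
        exact invol_fix_eq hS hw1 hw2 hwc hd
    obtain ⟨y, hy⟩ := conj_of_odd (hsq s hs2) (hsq w hw2) ho
    refine ⟨g⁻¹ * y * g, ?_⟩
    calc g⁻¹ * y * g * w * (g⁻¹ * y * g)⁻¹ = g⁻¹ * (y * (g * w * g⁻¹) * y⁻¹) * g := by group
      _ = s := by rw [hy]; group
  obtain ⟨c, hc, -⟩ := invol_fix hS hu1 hu2
  obtain ⟨d, hd, -⟩ := invol_fix hS hv1 hv2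
  rcases eq_or_ne c d with rfl | hcd
  · obtain ⟨e, he⟩ : ∃ e : Ω, e ≠ c := by
      rcases eq_or_ne c a with rfl | h
      · exact ⟨_, ne_b hS⟩
      · exact ⟨a, h.symm⟩
    obtain ⟨g, hg⟩ := exists_move_one hS c e
    have hw2 : g * u * g⁻¹ * (g * u * g⁻¹) = 1 := by
      rw [show g * u * g⁻¹ * (g * u * g⁻¹) = g * (u * u) * g⁻¹ by group, hu2]; group
    have hwe : (g * u * g⁻¹) • e = e := by rw [← hg, mul_smul, mul_smul, inv_smul_smul, hc]
    obtain ⟨y, hy⟩ := key v (g * u * g⁻¹) hv1 hv2 (fun h => hu1 (conj_eq_one_iff.1 h)) hw2 c e hd hwe he.symm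
    exact ⟨y * g, by rw [← hy]; group⟩
  · exact key v u hv1 hv2 hu1 hu2 d c hd hc hcd.symm

theorem normalizer_le (X : Set G) (hX : X ⊆ (Q : Set G)) (hx : ∃ x ∈ X, x ≠ 1) :
    Subgroup.normalizer X ≤ stabilizer G a := by
  obtain ⟨x, hxX, hx1⟩ := hx
  intro g hg
  have h : g * x * g⁻¹ ∈ Q := hX ((hg x).1 hxX)
  by_contra hga
  have hne : g⁻¹ • a ≠ a := fun e => hga (by
    show g • a = a
    conv_lhs => rw [← e]
    rw [smul_inv_smul])
  apply hx1
  refine Q_free hS hne (hX hxX) ?_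
  have h' : (g * x * g⁻¹) • a = a := hS.le h
  rw [mul_smul, mul_smul] at h'
  exact eq_inv_smul_iff.2 h'

/-! ### inverted elements -/

omit [Finite G] in
theorem mem_I {k : G} : k ∈ I ↔ k ∈ D ∧ t * k * t = k⁻¹ := by
  show _ ∧ _ ↔ _
  rw [t_inv hS]

omit [Finite G] in
theorem I_invol {k : G} (hk : k ∈ I) :
    k * t * (k * t) = 1 ∧ k * t ≠ 1 ∧ (k * t) • a = t • a := by
  obtain ⟨hkD, hkt⟩ := (mem_I hS).1 hk
  refine ⟨?_, ?_, ?_⟩
  · rw [show k * t * (k * t) = k * (t * k * t) by group, hkt, mul_inv_cancel]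
  · intro h
    apply hS.not_mem
    rw [show t = k⁻¹ from eq_inv_of_mul_eq_one_right h]
    exact inv_mem hkD.1
  · rw [mul_smul, hkD.2]

omit [Finite G] in
theorem mul_t_mem_I {u : G} (h2 : u * u = 1) (hu : u • a = t • a) : u * t ∈ I := by
  have hub : u • (t • a) = a := by rw [← hu, smul_smul, h2, one_smul]
  rw [mem_I hS]
  refine ⟨⟨?_, ?_⟩, ?_⟩
  · show (u * t) • a = a
    rw [mul_smul, hub]
  · show (u * t) • (t • a) = t • a
    rw [mul_smul, t_b hS, hu]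
  · rw [show t * (u * t) * t = t * u * (t * t) by group, hS.mul_self, mul_one, mul_inv_rev, t_inv hS,
      inv_eq_of_mul_eq_one_right h2]

omit [Finite G] in
/-- an involution moving a is a unique Q-conjugate of some kt -/
theorem outside_form {v : G} (h2 : v * v = 1) (hv : v • a ≠ a) :
    ∃ r ∈ Q, ∃ k ∈ I, v = r⁻¹ * (k * t) * r := by
  obtain ⟨⟨r, hr⟩, hrv, -⟩ := Q_move hS hv (ne_b hS)
  refine ⟨r, hr, r * v * r⁻¹ * t, mul_t_mem_I hS ?_ ?_, ?_⟩
  · rw [show r * v * r⁻¹ * (r * v * r⁻¹) = r * (v * v) * r⁻¹ by group, h2]; group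
  · rw [mul_smul, mul_smul, show r⁻¹ • a = a from hS.le (inv_mem hr)]; exact hrv
  · rw [mul_assoc (r * v * r⁻¹), hS.mul_self]; group

omit [Finite G] in
theorem outside_form_unique {r r' k k' : G} (hr : r ∈ Q) (hr' : r' ∈ Q) (hk : k ∈ I) (hk' : k' ∈ I)
    (h : r⁻¹ * (k * t) * r = r'⁻¹ * (k' * t) * r') : r = r' ∧ k = k' := by
  have e : ∀ {x l : G}, x ∈ Q → l ∈ I → x • ((x⁻¹ * (l * t) * x) • a) = t • a := by
    intro x l hx hl
    have hxa : x • a = a := hS.le hx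
    rw [mul_smul, mul_smul, smul_inv_smul, hxa, (I_invol hS hl).2.2]
  have hm : (r⁻¹ * (k * t) * r) • a ≠ a := fun hh => ne_b hS (by
    have := e hr hk
    rw [hh] at this
    exact this.symm.trans (hS.le hr))
  have hrr : r = r' := congrArg Subtype.val ((Q_move hS hm (ne_b hS)).unique
    (y₁ := ⟨r, hr⟩) (y₂ := ⟨r', hr'⟩) (e hr hk) (by show r' • _ = _; rw [h]; exact e hr' hk'))
  subst hrr
  exact ⟨rfl, mul_right_cancel (b := t) (mul_left_cancel (a := r⁻¹) (mul_right_cancel h))⟩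

theorem card_I : Nat.card ↥I = Nat.card ↥J := by
  classical
  have := finite_points hS
  let Out := {v : G // v * v = 1 ∧ v • a ≠ a}
  have e1 : ↥I × Q ≃ Out := Equiv.ofBijective
    (fun p => ⟨(p.2 : G)⁻¹ * ((p.1 : G) * t) * p.2, by
      obtain ⟨h1, h2, h3⟩ := I_invol hS p.1.2
      refine ⟨?_, fun hh => ?_⟩
      · rw [show (p.2 : G)⁻¹ * ((p.1 : G) * t) * p.2 * ((p.2 : G)⁻¹ * ((p.1 : G) * t) * p.2) =
          (p.2 : G)⁻¹ * ((p.1 : G) * t * ((p.1 : G) * t)) * p.2 by group, h1]; group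
      · rw [mul_smul, mul_smul, show (p.2 : G) • a = a from hS.le p.2.2, h3, inv_smul_eq_iff,
          show (p.2 : G) • a = a from hS.le p.2.2] at hh
        exact ne_b hS hh⟩)
    ⟨fun p p' h => by
      obtain ⟨h1, h2⟩ := outside_form_unique hS p.2.2 p'.2.2 p.1.2 p'.1.2 (congrArg Subtype.val h)
      exact Prod.ext (Subtype.ext h2) (Subtype.ext h1),
     fun v => by
      obtain ⟨r, hr, k, hk, e⟩ := outside_form hS v.2.1 v.2.2
      exact ⟨(⟨k, hk⟩, ⟨r, hr⟩), Subtype.ext e.symm⟩⟩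
  choose g hg using fun c : Ω => exists_move_one hS a c
  have hout : ∀ v : Out, (v : G) ≠ 1 := fun v h => v.2.2 (by rw [h, one_smul])
  have e2 : {c : Ω // c ≠ a} × ↥J ≃ Out := Equiv.ofBijective
    (fun p => ⟨g p.1 * (p.2 : G) * (g p.1)⁻¹, by
      obtain ⟨hs, hs1, hs2⟩ := p.2.2
      refine ⟨?_, fun hh => p.1.2 ?_⟩
      · rw [show g p.1 * (p.2 : G) * (g p.1)⁻¹ * (g p.1 * (p.2 : G) * (g p.1)⁻¹) =
          g p.1 * ((p.2 : G) * (p.2 : G)) * (g p.1)⁻¹ by group, hs2]; group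
      · refine invol_fix_eq hS (fun h => hs1 (conj_eq_one_iff.1 h)) (z := g p.1 * (p.2 : G) * (g p.1)⁻¹) ?_ ?_ hh
        · rw [show g p.1 * (p.2 : G) * (g p.1)⁻¹ * (g p.1 * (p.2 : G) * (g p.1)⁻¹) =
            g p.1 * ((p.2 : G) * (p.2 : G)) * (g p.1)⁻¹ by group, hs2]; group
        · exact move_fix (hg _) hs⟩)
    ⟨fun p p' h => by
      have h' : g p.1 * (p.2 : G) * (g p.1)⁻¹ = g p'.1 * (p'.2 : G) * (g p'.1)⁻¹ := congrArg Subtype.val h
      have hfix : ∀ q : {c : Ω // c ≠ a} × ↥J, (g q.1 * (q.2 : G) * (g q.1)⁻¹) • (q.1 : Ω) = q.1 :=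
        fun q => move_fix (hg _) q.2.2.1
      have hc : p.1 = p'.1 := by
        apply Subtype.ext
        refine invol_fix_eq hS (fun hh => p.2.2.2.1 (conj_eq_one_iff.1 hh)) ?_ (hfix p) (by rw [h']; exact hfix p')
        rw [show g p.1 * (p.2 : G) * (g p.1)⁻¹ * (g p.1 * (p.2 : G) * (g p.1)⁻¹) =
            g p.1 * ((p.2 : G) * (p.2 : G)) * (g p.1)⁻¹ by group, p.2.2.2.2]; group
      rw [hc] at h'
      exact Prod.ext hc (Subtype.ext (mul_left_cancel (mul_right_cancel h'))),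
     fun v => by
      obtain ⟨c, hc, -⟩ := invol_fix hS (hout v) v.2.1
      have hca : c ≠ a := fun h => v.2.2 (h ▸ hc)
      refine ⟨(⟨c, hca⟩, ⟨(g c)⁻¹ * (v : G) * g c, ?_, ?_, ?_⟩), Subtype.ext ?_⟩
      · show ((g c)⁻¹ * (v : G) * g c) • a = a
        rw [mul_smul, mul_smul, hg, hc, inv_smul_eq_iff, hg]
      · intro h
        apply hout v
        calc (v : G) = g c * ((g c)⁻¹ * v * g c) * (g c)⁻¹ := by group
          _ = 1 := by rw [h]; group
      · rw [show (g c)⁻¹ * (v : G) * g c * ((g c)⁻¹ * v * g c) = (g c)⁻¹ * ((v : G) * v) * g c by group, v.2.1]; group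
      · show g c * ((g c)⁻¹ * (v : G) * g c) * (g c)⁻¹ = v
        group⟩
  have e := Nat.card_congr (e1.trans e2.symm)
  rw [Nat.card_prod, Nat.card_prod] at e
  have hn : Nat.card {c : Ω // c ≠ a} = Nat.card Q := by
    have h1 := card_points hS
    rw [← Nat.card_congr (Equiv.optionSubtypeNe a), Finite.card_option] at h1
    omega
  rw [hn, mul_comm (Nat.card Q)] at e
  exact Nat.eq_of_mul_eq_mul_right Nat.card_pos e

omit [Finite G] in
theorem J_move {s : G} (hs : s ∈ J) : t * s * t * (t * s * t) = 1 ∧ (t * s * t) • (t • a) = t • a := by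
  obtain ⟨hs, -, hs2⟩ := hs
  refine ⟨?_, ?_⟩
  · rw [show t * s * t * (t * s * t) = t * (s * (t * t) * s) * t by group, hS.mul_self, mul_one, hs2,
      mul_one, hS.mul_self]
  · rw [mul_smul, mul_smul, t_b hS, show s • a = a from hs]

theorem J_moves_a {s : G} (hs : s ∈ J) : (t * s * t) • a ≠ a := by
  intro h
  obtain ⟨h1, h2⟩ := J_move hS hs
  refine ne_b hS (invol_fix_eq hS ?_ h1 h2 h)
  intro he
  apply hs.2.1
  calc s = t * t * s * (t * t) := by rw [hS.mul_self]; group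
    _ = t * (t * s * t) * t := by group
    _ = 1 := by rw [he, mul_one, hS.mul_self]

theorem psi_inj {s s' r r' k : G} (hs : s ∈ J) (hs' : s' ∈ J) (hr : r ∈ Q) (hr' : r' ∈ Q)
    (e : t * s * t = r⁻¹ * (k * t) * r) (e' : t * s' * t = r'⁻¹ * (k * t) * r') : s = s' ∧ r = r' := by
  obtain ⟨h1, h2⟩ := J_move hS hs
  obtain ⟨h1', h2'⟩ := J_move hS hs'
  have hconj : t * s * t = (r⁻¹ * r') * (t * s' * t) * (r⁻¹ * r')⁻¹ := by rw [e, e']; group
  have hρ : r⁻¹ * r' = 1 := by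
    refine Q_free hS (ne_b hS) (mul_mem (inv_mem hr) hr') ?_
    refine invol_fix_eq hS (z := t * s * t) ?_ h1 ?_ h2
    · intro he; exact J_moves_a hS hs (by rw [he, one_smul])
    · rw [hconj]; exact move_fix rfl h2'
  have hr_eq : r = r' := inv_mul_eq_one.1 hρ
  subst hr_eq
  refine ⟨?_, rfl⟩
  exact mul_left_cancel (mul_right_cancel (e.trans e'.symm))

theorem psi_surj {k : G} (hk : k ∈ I) : ∃ s ∈ J, ∃ r ∈ Q, t * s * t = r⁻¹ * (k * t) * r := by
  classical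
  choose r hr ψ hψ hv using fun s : ↥J => outside_form hS (J_move hS s.2).1 (J_moves_a hS s.2)
  let f : ↥J → ↥I := fun s => ⟨ψ s, hψ s⟩
  have hf : Function.Injective f := by
    intro s s' h
    have h' : ψ s = ψ s' := congrArg Subtype.val h
    exact Subtype.ext (psi_inj hS s.2 s'.2 (hr s) (hr s') (hv s) (by rw [h']; exact hv s')).1
  have hb : Function.Bijective f := (Nat.bijective_iff_injective_and_card f).2 ⟨hf, (card_I hS).symm⟩
  obtain ⟨s, hs⟩ := hb.2 ⟨k, hk⟩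
  have hk' : ψ s = k := congrArg Subtype.val hs
  exact ⟨s, s.2, r s, hr s, by rw [← hk']; exact hv s⟩

omit [Finite G] in
theorem one_mem_I : (1 : G) ∈ I := by
  rw [mem_I hS]
  exact ⟨one_mem _, by rw [mul_one, hS.mul_self, inv_one]⟩

theorem structure_equation :
    ∃! p : G × G, p.1 ∈ J ∧ p.2 ∈ Q ∧ t * p.1 * t = p.2⁻¹ * t * p.2 := by
  obtain ⟨s, hs, r, hr, e⟩ := psi_surj hS (one_mem_I hS)
  rw [one_mul] at e
  refine ⟨(s, r), ⟨hs, hr, e⟩, fun p ⟨hp, hq, he⟩ => ?_⟩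
  obtain ⟨h1, h2⟩ := psi_inj hS (k := 1) hp hs hq hr (by rw [one_mul]; exact he) (by rw [one_mul]; exact e)
  exact Prod.ext h1 h2

/-- the square root in D of an inverted element -/
theorem exists_root {k : G} (hk : k ∈ I) :
    ∃ k₀ ∈ I, k₀ ^ 2 = k ∧ k * t = k₀ * t * k₀⁻¹ := by
  obtain ⟨hkD, hkt⟩ := (mem_I hS).1 hk
  have ho : Odd (orderOf k) := odd_orderOf_mem hS.odd_card hkD
  set n := (orderOf k + 1) / 2
  have h0 : t * k ^ n * t = (k ^ n)⁻¹ := by
    have h := (conj_pow (i := n) (a := t) (b := k)).symm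
    rw [t_inv hS] at h
    rw [h, hkt, inv_pow]
  have hr : (k ^ n) ^ 2 = k := root_sq ho
  refine ⟨k ^ n, (mem_I hS).2 ⟨pow_mem hkD n, h0⟩, hr, ?_⟩
  rw [← h0, mul_assoc (k ^ n) t, show t * (t * k ^ n * t) = (t * t) * k ^ n * t by group, hS.mul_self,
    one_mul, ← mul_assoc, ← pow_two, hr]

/-- every involution of the stabiliser is a conjugate of the distinguished one -/
theorem exists_from_base {s₁ r₁ : G} (hs₁ : s₁ ∈ J) (hr₁ : r₁ ∈ Q) (e₁ : t * s₁ * t = r₁⁻¹ * t * r₁)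
    {s : G} (hs : s ∈ J) : ∃ k₀ ∈ I, s = k₀⁻¹ * s₁ * k₀ := by
  obtain ⟨r, hr, k, hk, e⟩ := outside_form hS (J_move hS hs).1 (J_moves_a hS hs)
  obtain ⟨k₀, hk₀, -, hkt⟩ := exists_root hS hk
  obtain ⟨hk₀D, hk₀t⟩ := (mem_I hS).1 hk₀
  obtain ⟨hs', hs1, hs2⟩ := hs
  have hJ : k₀ * s * k₀⁻¹ ∈ J := by
    refine ⟨mul_mem (mul_mem hk₀D.1 hs') (inv_mem hk₀D.1), fun h => hs1 (conj_eq_one_iff.1 h), ?_⟩
    rw [show k₀ * s * k₀⁻¹ * (k₀ * s * k₀⁻¹) = k₀ * (s * s) * k₀⁻¹ by group, hs2]; group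
  have hr' : k₀⁻¹ * r * k₀ ∈ Q := conj_Q hS hk₀D.1 hr
  have hk₀t' : t * k₀ = k₀⁻¹ * t := by rw [← hk₀t, mul_assoc _ t t, hS.mul_self, mul_one]
  have hk₀t'' : k₀⁻¹ * t = t * k₀ := hk₀t'.symm
  have hk₀i : k₀⁻¹ = t * k₀ * t := hk₀t.symm
  have hk₀m : t * k₀⁻¹ * t = k₀ := by
    rw [hk₀i, show t * (t * k₀ * t) * t = (t * t) * k₀ * (t * t) by group, hS.mul_self]; group
  have e' : t * (k₀ * s * k₀⁻¹) * t = (k₀⁻¹ * r * k₀)⁻¹ * t * (k₀⁻¹ * r * k₀) := by
    calc t * (k₀ * s * k₀⁻¹) * t = (t * k₀ * t) * (t * s * t) * (t * k₀⁻¹ * t) := by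
          simp only [mul_assoc, ← mul_assoc t t, hS.mul_self, one_mul]
      _ = k₀⁻¹ * (r⁻¹ * (k * t) * r) * k₀ := by rw [hk₀t, hk₀m, e]
      _ = _ := by rw [hkt]; group
  obtain ⟨h1, -⟩ := psi_inj hS (k := 1) hJ hs₁ hr' hr₁ (by rw [one_mul]; exact e') (by rw [one_mul]; exact e₁)
  exact ⟨k₀, hk₀, by rw [← h1]; group⟩

theorem centralizer_eq {s₁ r₁ : G} (hs₁ : s₁ ∈ J) (hr₁ : r₁ ∈ Q) (e₁ : t * s₁ * t = r₁⁻¹ * t * r₁)
    {d : G} (hd : d ∈ D) : d * t = t * d ↔ d * s₁ = s₁ * d := by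
  constructor
  · intro h
    obtain ⟨hs', hs1, hs2⟩ := hs₁
    have hJ : d * s₁ * d⁻¹ ∈ J := by
      refine ⟨mul_mem (mul_mem hd.1 hs') (inv_mem hd.1), fun h => hs1 (conj_eq_one_iff.1 h), ?_⟩
      rw [show d * s₁ * d⁻¹ * (d * s₁ * d⁻¹) = d * (s₁ * s₁) * d⁻¹ by group, hs2]; group
    have hdi : d⁻¹ * t = t * d⁻¹ := by
      rw [inv_mul_eq_iff_eq_mul, ← mul_assoc, h, mul_inv_cancel_right]
    have htt : d * t * d⁻¹ = t := by rw [h, mul_inv_cancel_right]
    have e' : t * (d * s₁ * d⁻¹) * t = (d * r₁ * d⁻¹)⁻¹ * t * (d * r₁ * d⁻¹) := by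
      calc t * (d * s₁ * d⁻¹) * t = (t * d) * s₁ * (d⁻¹ * t) := by group
        _ = d * (t * s₁ * t) * d⁻¹ := by rw [← h, hdi]; group
        _ = (d * r₁ * d⁻¹)⁻¹ * (d * t * d⁻¹) * (d * r₁ * d⁻¹) := by rw [e₁]; group
        _ = _ := by rw [htt]
    obtain ⟨h1, -⟩ := psi_inj hS (k := 1) hJ ⟨hs', hs1, hs2⟩ (hS.conj_mem d hd.1 r₁ hr₁) hr₁
      (by rw [one_mul]; exact e') (by rw [one_mul]; exact e₁)
    exact mul_inv_eq_iff_eq_mul.1 h1
  · intro h
    set e := t * d * t with he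
    have hE : e ∈ D := conj_mem_D hS hd
    have hcomm : e * (t * s₁ * t) = t * s₁ * t * e := by
      rw [he]
      calc t * d * t * (t * s₁ * t) = t * (d * (t * t) * s₁) * t := by group
        _ = t * (s₁ * d) * t := by rw [hS.mul_self, mul_one, h]
        _ = t * (s₁ * (t * t) * d) * t := by rw [hS.mul_self, mul_one]
        _ = _ := by group
    have he2 : e * (t * s₁ * t) * e⁻¹ = t * s₁ * t := by rw [hcomm, mul_inv_cancel_right]
    rw [e₁] at he2
    have hI : e * t * e⁻¹ * t ∈ I := mul_t_mem_I hS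
      (by rw [show e * t * e⁻¹ * (e * t * e⁻¹) = e * (t * t) * e⁻¹ by group, hS.mul_self]; group)
      (by rw [mul_smul, mul_smul, show e⁻¹ • a = a from (inv_mem hE).1, hE.2])
    obtain ⟨-, hk⟩ := outside_form_unique hS (r := e * r₁ * e⁻¹) (r' := r₁)
      (hS.conj_mem e hE.1 r₁ hr₁) hr₁ hI (one_mem_I hS) (by
        rw [one_mul, mul_assoc (e * t * e⁻¹), hS.mul_self, mul_one, ← he2]; group)
    have h2 : e * t = t * e := by
      rw [mul_eq_one_iff_eq_inv, t_inv hS] at hk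
      exact mul_inv_eq_iff_eq_mul.1 hk
    have h3 : t * d = d * t := by
      rw [he] at h2
      calc t * d = t * d * t * t := by rw [mul_assoc _ t t, hS.mul_self, mul_one]
        _ = t * (t * d * t) := h2
        _ = d * t := by simp only [← mul_assoc]; rw [hS.mul_self, one_mul]
    exact h3.symm

theorem conj_I_injective {s : G} (hs : s ∈ J) {k₁ k₂ : G} (hk₁ : k₁ ∈ I) (hk₂ : k₂ ∈ I)
    (h : k₁⁻¹ * s * k₁ = k₂⁻¹ * s * k₂) : k₁ = k₂ := by
  obtain ⟨⟨s₁, r₁⟩, ⟨hs₁, hr₁, e₁⟩, -⟩ := structure_equation hS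
  obtain ⟨k₀, hk₀, rfl⟩ := exists_from_base hS hs₁ hr₁ e₁ hs
  obtain ⟨hD1, h1⟩ := (mem_I hS).1 hk₁
  obtain ⟨hD2, h2⟩ := (mem_I hS).1 hk₂
  obtain ⟨hD0, h0⟩ := (mem_I hS).1 hk₀
  set c := k₀ * k₁ * k₂⁻¹ * k₀⁻¹ with hc
  have hcD : c ∈ D := mul_mem (mul_mem (mul_mem hD0 hD1) (inv_mem hD2)) (inv_mem hD0)
  have hcs : c * s₁ = s₁ * c := by
    have h' : (k₀ * k₁)⁻¹ * s₁ * (k₀ * k₁) = (k₀ * k₂)⁻¹ * s₁ * (k₀ * k₂) := by
      calc _ = k₁⁻¹ * (k₀⁻¹ * s₁ * k₀) * k₁ := by group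
        _ = k₂⁻¹ * (k₀⁻¹ * s₁ * k₀) * k₂ := h
        _ = _ := by group
    calc c * s₁ = (k₀ * k₁) * ((k₀ * k₂)⁻¹ * s₁ * (k₀ * k₂)) * (k₀ * k₂)⁻¹ := by rw [hc]; group
      _ = (k₀ * k₁) * ((k₀ * k₁)⁻¹ * s₁ * (k₀ * k₁)) * (k₀ * k₂)⁻¹ := by rw [h']
      _ = _ := by rw [hc]; group
  have hct := (centralizer_eq hS hs₁ hr₁ e₁ hcD).2 hcs
  have ii : ∀ {x : G}, t * x * t = x⁻¹ → t * x⁻¹ * t = x := fun {x} hx => by
    rw [← hx, show t * (t * x * t) * t = (t * t) * x * (t * t) by group, hS.mul_self]; group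
  have hσ : t * c * t = k₀⁻¹ * k₁⁻¹ * k₂ * k₀ := by
    calc t * c * t = (t * k₀ * t) * (t * k₁ * t) * (t * k₂⁻¹ * t) * (t * k₀⁻¹ * t) := by
          rw [hc]; simp only [mul_assoc, ← mul_assoc t t, hS.mul_self, one_mul]
      _ = _ := by rw [h0, h1, ii h2, ii h0]
  have hcc : k₀ * k₁ * k₂⁻¹ * k₀⁻¹ = k₀⁻¹ * k₁⁻¹ * k₂ * k₀ := by
    rw [← hσ, ← hc, ← hct, mul_assoc, hS.mul_self, mul_one]
  have key : k₁ * k₀ ^ 2 * k₁ = k₂ * k₀ ^ 2 * k₂ := by
    have e1 : k₁ * k₀ ^ 2 * k₁ = k₁ * k₀ * (k₀ * k₁ * k₂⁻¹ * k₀⁻¹) * (k₀ * k₂) := by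
      rw [pow_two]; group
    rw [e1, hcc, pow_two]; group
  have hsq : (k₀ * k₁ * k₀) ^ 2 = (k₀ * k₂ * k₀) ^ 2 := by
    calc (k₀ * k₁ * k₀) ^ 2 = k₀ * (k₁ * k₀ ^ 2 * k₁) * k₀ := by simp only [pow_two]; group
      _ = k₀ * (k₂ * k₀ ^ 2 * k₂) * k₀ := by rw [key]
      _ = _ := by simp only [pow_two]; group
  exact mul_left_cancel (mul_right_cancel (eq_of_sq_eq hS.odd_card (mul_mem (mul_mem hD0 hD1) hD0)
    (mul_mem (mul_mem hD0 hD2) hD0) hsq))

theorem conj_I_surjective {s s' : G} (hs : s ∈ J) (hs' : s' ∈ J) : ∃ k ∈ I, k⁻¹ * s * k = s' := by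
  classical
  let f : ↥I → ↥J := fun k => ⟨(k : G)⁻¹ * s * k, by
    have hk : (k : G) ∈ stabilizer G a := k.2.1.1
    obtain ⟨h, h1, h2⟩ := hs
    refine ⟨mul_mem (mul_mem (inv_mem hk) h) hk, fun he => h1 ?_, ?_⟩
    · calc s = (k : G) * ((k : G)⁻¹ * s * k) * (k : G)⁻¹ := by group
        _ = 1 := by rw [he]; group
    · rw [show (k : G)⁻¹ * s * k * ((k : G)⁻¹ * s * k) = (k : G)⁻¹ * (s * s) * k by group, h2]; group⟩
  have hb : Function.Bijective f := (Nat.bijective_iff_injective_and_card f).2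
    ⟨fun k l h => Subtype.ext (conj_I_injective hS hs k.2 l.2 (congrArg Subtype.val h)), card_I hS⟩
  obtain ⟨k, hk⟩ := hb.2 ⟨s', hs'⟩
  exact ⟨k, k.2, congrArg Subtype.val hk⟩

/-- a nontrivial inverted element centralizes no involution of the stabiliser -/
theorem I_not_commute {s x : G} (hs : s ∈ J) (hx : x ∈ I) (h : x * s = s * x) : x = 1 :=
  conj_I_injective hS hs hx (one_mem_I hS) (by rw [mul_assoc, ← h]; group)

end Cfsg.Agent.RankOne
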