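import Cfsg.Agent.Lib.RankOne.Basic

/-! Uniqueness of the canonical form in the rank-one set-up. -/

set_option autoImplicit false

namespace Cfsg.Agent.RankOne

open MulAction

variable {G Ω : Type*} [Group G] [Finite G] [MulAction G Ω] {a : Ω} {t : G} {Q : Subgroup G}
  (hS : Cfsg.IsRankOneSetup G Ω a t Q)

include hS

omit [Finite G] in
theorem canon_unique {g g' h h' f f' : G} (hg : g ∈ Q) (hg' : g' ∈ Q)
    (hh : h ∈ stabilizer G a ⊓ stabilizer G (t • a)) (hh' : h' ∈ stabilizer G a ⊓ stabilizer G (t • a))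
    (hf : f ∈ Q) (hf' : f' ∈ Q) (e : g * h * t * f = g' * h' * t * f') : g = g' ∧ h = h' ∧ f = f' := by
  have hact : ∀ {g h f : G}, h ∈ stabilizer G a ⊓ stabilizer G (t • a) → f ∈ Q →
      (g * h * t * f) • a = g • (t • a) := by
    intro g h f hh hf
    rw [mul_smul, show f • a = a from hS.le hf, mul_smul, mul_smul, hh.2]
  have hgg : g = g' := by
    have hga : g • (t • a) ≠ a := fun h0 => ne_b hS (smul_left_cancel g (h0.trans (hS.le hg).symm))
    have h1 : g • (t • a) = g' • (t • a) := by rw [← hact (g := g) hh hf, e, hact hh' hf']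
    exact congrArg Subtype.val ((Q_move hS (ne_b hS) hga).unique (y₁ := ⟨g, hg⟩) (y₂ := ⟨g', hg'⟩) rfl h1.symm)
  subst hgg
  have e' : h * t * f = h' * t * f' := mul_left_cancel (a := g) (by simpa only [mul_assoc] using e)
  have hq : f' * f⁻¹ ∈ Q ⊓ stabilizer G (t • a) := by
    refine ⟨Q.mul_mem hf' (Q.inv_mem hf), ?_⟩
    have heq : f' * f⁻¹ = t * (h'⁻¹ * h) * t := by
      calc f' * f⁻¹ = t⁻¹ * h'⁻¹ * (h' * t * f') * f⁻¹ := by group
        _ = t⁻¹ * h'⁻¹ * (h * t * f) * f⁻¹ := by rw [e']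
        _ = _ := by rw [t_inv hS]; group
    rw [heq]; exact (conj_mem_D hS (mul_mem (inv_mem hh') hh)).2
  rw [hS.inf_eq_bot, Subgroup.mem_bot, mul_inv_eq_one] at hq
  subst hq
  exact ⟨rfl, mul_right_cancel (mul_right_cancel e'), rfl⟩

end Cfsg.Agent.RankOne
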