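import Cfsg.Agent.Lib.RankOne.Basic
import Cfsg.Agent.Lib.Solv.ThompsonKernel
import Cfsg.Agent.Lib.Solv.MinimalNonNilpotent

/-! Centralisers of subsets of D with at least three fixed points; nilpotency of Q. -/

set_option autoImplicit false

namespace Cfsg.Agent.RankOne

open MulAction

variable {G Ω : Type*} [Group G] [Finite G] [MulAction G Ω] {a : Ω} {t : G} {Q : Subgroup G}
  (hS : Cfsg.IsRankOneSetup G Ω a t Q)

include hS

local notation "D" => (stabilizer G a ⊓ stabilizer G (t • a))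
local notation "J" => Cfsg.involutionsIn (stabilizer G a : Set G)
local notation "I" => Cfsg.invertedBy D t

omit [Finite G] in
theorem cent_move (X : Set G) {c b b' : Ω}
    (hfix : ∀ x ∈ X, x • c = c ∧ x • b = b ∧ x • b' = b') (hb : b ≠ c) (hb' : b' ≠ c) :
    ∃ z ∈ Subgroup.centralizer X, z • c = c ∧ z • b = b' := by
  obtain ⟨g, hg⟩ := exists_move_one hS c a
  have h1 : g • b ≠ a := fun h => hb (smul_left_cancel g (h.trans hg.symm))
  have h2 : g • b' ≠ a := fun h => hb' (smul_left_cancel g (h.trans hg.symm))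
  obtain ⟨⟨y, hy⟩, hyb, hyu⟩ := Q_move hS h1 h2
  refine ⟨g⁻¹ * y * g, ?_, ?_, ?_⟩
  · rw [Subgroup.mem_centralizer_iff]
    intro x hx
    obtain ⟨hxc, hxb, hxb'⟩ := hfix x hx
    set x' := g * x * g⁻¹ with hx'
    have hx'a : x' ∈ stabilizer G a := move_fix hg hxc
    have hgb : ∀ d : Ω, x • d = d → x'⁻¹ • (g • d) = g • d := fun d hd =>
      inv_smul_eq_iff.2 (move_fix rfl hd).symm
    have hmem : x' * y * x'⁻¹ ∈ Q := hS.conj_mem x' hx'a y hy
    have := hyu ⟨_, hmem⟩ (by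
      show (x' * y * x'⁻¹) • (g • b) = g • b'
      rw [mul_smul, mul_smul, hgb b hxb, hyb]
      exact move_fix rfl hxb')
    have e : x' * y * x'⁻¹ = y := congrArg Subtype.val this
    calc x * (g⁻¹ * y * g) = g⁻¹ * (x' * y * x'⁻¹) * g * x := by rw [hx']; group
      _ = g⁻¹ * y * g * x := by rw [e]
  · rw [mul_smul, mul_smul, hg, show y • a = a from hS.le hy, inv_smul_eq_iff, hg]
  · rw [mul_smul, mul_smul, hyb, inv_smul_smul]

omit [Finite G] in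
theorem cent_pair (X : Set G) {b₀ c₀ d₀ : Ω} (hbc : b₀ ≠ c₀) (hbd : b₀ ≠ d₀) (hcd : c₀ ≠ d₀)
    (h3 : ∀ x ∈ X, x • b₀ = b₀ ∧ x • c₀ = c₀ ∧ x • d₀ = d₀)
    {b₁ b₂ c₁ c₂ : Ω} (h : ∀ x ∈ X, x • b₁ = b₁ ∧ x • b₂ = b₂ ∧ x • c₁ = c₁ ∧ x • c₂ = c₂)
    (hb : b₁ ≠ b₂) (hc : c₁ ≠ c₂) :
    ∃ g ∈ Subgroup.centralizer X, g • b₁ = c₁ ∧ g • b₂ = c₂ := by
  obtain ⟨d, hd, hd1, hd2⟩ : ∃ d, (∀ x ∈ X, x • d = d) ∧ d ≠ b₁ ∧ d ≠ c₁ := by
    by_cases hb0 : b₀ ≠ b₁ ∧ b₀ ≠ c₁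
    · exact ⟨b₀, fun x hx => (h3 x hx).1, hb0⟩
    by_cases hc0 : c₀ ≠ b₁ ∧ c₀ ≠ c₁
    · exact ⟨c₀, fun x hx => (h3 x hx).2.1, hc0⟩
    refine ⟨d₀, fun x hx => (h3 x hx).2.2, ?_, ?_⟩ <;>
    · intro hh; subst hh
      simp only [ne_eq, not_and_or, not_not] at hb0 hc0
      rcases hb0 with h' | h' <;> rcases hc0 with h'' | h'' <;>
        first | exact hbd h' | exact hcd h'' | exact hbc (h'.trans h''.symm)
  obtain ⟨z, hz, -, hz1⟩ := cent_move hS X (c := d) (b := b₁) (b' := c₁)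
    (fun x hx => ⟨hd x hx, (h x hx).1, (h x hx).2.2.1⟩) hd1.symm hd2.symm
  have hfix : ∀ x ∈ X, x • (z • b₂) = z • b₂ := fun x hx => by
    rw [smul_smul, Subgroup.mem_centralizer_iff.1 hz x hx, mul_smul, (h x hx).2.1]
  have hne : z • b₂ ≠ c₁ := fun e => hb (smul_left_cancel z (hz1.trans e.symm))
  obtain ⟨w, hw, hw1, hw2⟩ := cent_move hS X (c := c₁) (b := z • b₂) (b' := c₂)
    (fun x hx => ⟨(h x hx).2.2.1, hfix x hx, (h x hx).2.2.2⟩) hne hc.symm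
  exact ⟨w * z, mul_mem hw hz, by rw [mul_smul, hz1, hw1], by rw [mul_smul, hw2]⟩

theorem cent_swap (X : Set G) (hX : X ⊆ (D : Set G)) {b₀ c₀ d₀ : Ω} (hbc : b₀ ≠ c₀) (hbd : b₀ ≠ d₀)
    (hcd : c₀ ≠ d₀) (h3 : ∀ x ∈ X, x • b₀ = b₀ ∧ x • c₀ = c₀ ∧ x • d₀ = d₀) :
    ∃ z ∈ Subgroup.centralizer X, z ≠ 1 ∧ z * z = 1 ∧ z • a = t • a := by
  obtain ⟨g, hg, hga, hgb⟩ := cent_pair hS X hbc hbd hcd h3 (b₁ := a) (b₂ := t • a) (c₁ := t • a) (c₂ := a)
    (fun x hx => ⟨(hX hx).1, (hX hx).2, (hX hx).2, (hX hx).1⟩) (ne_b hS).symm (ne_b hS)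
  obtain ⟨m, o, ho, hmo⟩ := Nat.exists_eq_two_pow_mul_odd (orderOf_pos g).ne'
  set h := g ^ o with hh
  have hswap : ∀ n : ℕ, (g ^ (2 * n)) • a = a ∧ (g ^ (2 * n)) • (t • a) = t • a := by
    intro n
    induction n with
    | zero => simp
    | succ n ih =>
      rw [mul_add, mul_one, pow_add, pow_two]
      simp only [mul_smul, hga, hgb]
      exact ih
  have hha : h • a = t • a := by
    obtain ⟨n, hn⟩ := ho
    rw [hh, hn, pow_succ', mul_smul, (hswap n).1, hga]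
  have hh2 : h ^ 2 ∈ D := by
    rw [hh, ← pow_mul, mul_comm]; exact hswap o
  have hord : orderOf h ∣ 2 ^ m := by
    apply orderOf_dvd_of_pow_eq_one
    rw [hh, ← pow_mul, mul_comm, ← hmo, pow_orderOf_eq_one]
  have h1 : h ^ 2 = 1 := by
    rw [← orderOf_eq_one_iff]
    have hdvd : orderOf (h ^ 2) ∣ 2 ^ m := (orderOf_pow_dvd 2).trans hord
    obtain ⟨j, -, hj⟩ := (Nat.dvd_prime_pow Nat.prime_two).1 hdvd
    have hodd := odd_orderOf_mem hS.odd_card hh2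
    rw [hj] at hodd ⊢
    rcases Nat.eq_zero_or_pos j with rfl | hjp
    · rfl
    · exact absurd hodd (Nat.not_odd_iff_even.2 (Nat.even_pow.2 ⟨even_two, hjp.ne'⟩))
  refine ⟨h, pow_mem hg o, ?_, by rw [← pow_two, h1], hha⟩
  intro he
  rw [he, one_smul] at hha
  exact ne_b hS hha.symm

/-- the centraliser of X contains an involution of Q -/
theorem cent_invol_Q (X : Set G) (hX : X ⊆ (D : Set G)) {b₀ c₀ d₀ : Ω} (hbc : b₀ ≠ c₀) (hbd : b₀ ≠ d₀)
    (hcd : c₀ ≠ d₀) (h3 : ∀ x ∈ X, x • b₀ = b₀ ∧ x • c₀ = c₀ ∧ x • d₀ = d₀) :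
    ∃ s ∈ J, s ∈ Q ∧ s ∈ Subgroup.centralizer X := by
  obtain ⟨z, hz, hz1, hz2, hza⟩ := cent_swap hS X hX hbc hbd hcd h3
  obtain ⟨c, hc, hcu⟩ := invol_fix hS hz1 hz2
  have hcX : ∀ x ∈ X, x • c = c := fun x hx => by
    refine hcu _ ?_
    show z • x • c = x • c
    rw [smul_smul, ← Subgroup.mem_centralizer_iff.1 hz x hx, mul_smul, hc]
  have hca : c ≠ a := fun h => ne_b hS (by rw [← hza, ← h]; exact hc)
  obtain ⟨w, hw, hwc, -⟩ := cent_pair hS X hbc hbd hcd h3 (b₁ := c) (b₂ := a) (c₁ := a) (c₂ := c)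
    (fun x hx => ⟨hcX x hx, (hX hx).1, (hX hx).1, hcX x hx⟩) hca hca.symm
  have hs2 : w * z * w⁻¹ * (w * z * w⁻¹) = 1 := by
    rw [show w * z * w⁻¹ * (w * z * w⁻¹) = w * (z * z) * w⁻¹ by group, hz2]; group
  have hsa : w * z * w⁻¹ ∈ stabilizer G a := move_fix hwc hc
  exact ⟨_, ⟨hsa, fun h => hz1 (conj_eq_one_iff.1 h), hs2⟩, invol_mem hS hsa hs2,
    mul_mem (mul_mem hw hz) (inv_mem hw)⟩

theorem fpf_I {x : G} (hx : x ∈ I) (hx1 : x ≠ 1) {q : G} (hq : q ∈ Q) (hc : q * x = x * q) : q = 1 := by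
  by_contra hq1
  have hxD := ((mem_I hS).1 hx).1
  set c := q • (t • a) with hcdef
  have hca : c ≠ a := fun h => ne_b hS (smul_left_cancel q (h.trans (hS.le hq).symm))
  have hcb : c ≠ t • a := fun h => hq1 (Q_free hS (ne_b hS) hq h)
  have hfix : x • c = c := by rw [hcdef, smul_smul, ← hc, mul_smul, hxD.2]
  obtain ⟨s, hs, -, hsX⟩ := cent_invol_Q hS {x} (by intro y hy; rw [Set.mem_singleton_iff.1 hy]; exact hxD)
    (b₀ := a) (c₀ := t • a) (d₀ := c) (ne_b hS).symm hca.symm hcb.symm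
    (fun y hy => by rw [Set.mem_singleton_iff.1 hy]; exact ⟨hxD.1, hxD.2, hfix⟩)
  exact hx1 (I_not_commute hS hs hx (Subgroup.mem_centralizer_iff.1 hsX x (Set.mem_singleton x)))

theorem exists_I_ne_one (h2 : ∃ x y : G, x ≠ 1 ∧ y ≠ 1 ∧ x ≠ y ∧ x * x = 1 ∧ y * y = 1 ∧ x * y = y * x) :
    ∃ k ∈ I, k ≠ 1 := by
  obtain ⟨x, y, hx1, hy1, hxy, hx2, hy2, hc⟩ := h2
  obtain ⟨c, hxc, -⟩ := invol_fix hS hx1 hx2
  have hyc : y • c = c := by
    refine (invol_fix_eq hS hx1 hx2 ?_ hxc)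
    rw [smul_smul, hc, mul_smul, hxc]
  obtain ⟨g, hg⟩ := exists_move_one hS c a
  have hm : ∀ z : G, z ≠ 1 → z * z = 1 → z • c = c → g * z * g⁻¹ ∈ J := fun z h1 h2 hz => by
    refine ⟨move_fix hg hz, fun h => h1 (conj_eq_one_iff.1 h), ?_⟩
    rw [show g * z * g⁻¹ * (g * z * g⁻¹) = g * (z * z) * g⁻¹ by group, h2]; group
  obtain ⟨k, hk, he⟩ := conj_I_surjective hS (hm x hx1 hx2 hxc) (hm y hy1 hy2 hyc)
  refine ⟨k, hk, fun h => hxy ?_⟩
  rw [h] at he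
  exact mul_left_cancel (mul_right_cancel (by simpa using he : g * x * g⁻¹ = g * y * g⁻¹))

omit [Finite G] in
theorem pow_mem_I {k : G} (hk : k ∈ I) (n : ℕ) : k ^ n ∈ I := by
  obtain ⟨hD, ht⟩ := (mem_I hS).1 hk
  refine (mem_I hS).2 ⟨pow_mem hD n, ?_⟩
  have h := (conj_pow (i := n) (a := t) (b := k)).symm
  rw [t_inv hS] at h
  rw [h, ht, inv_pow]

theorem isNilpotent_Q_of {k : G} (hk : k ∈ I) (hk1 : k ≠ 1) : Group.IsNilpotent Q := by
  have ho : orderOf k ≠ 1 := fun h => hk1 (orderOf_eq_one_iff.1 h)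
  obtain ⟨p, hp, hpd⟩ := Nat.exists_prime_and_dvd ho
  set x := k ^ (orderOf k / p) with hx
  have hxI : x ∈ I := pow_mem_I hS hk _
  have hxp : orderOf x = p := by
    rw [hx]; exact orderOf_pow_orderOf_div (orderOf_pos k).ne' hpd
  have hx1 : x ≠ 1 := fun h => hp.ne_one (by rw [← hxp, h, orderOf_one])
  have hxD := ((mem_I hS).1 hxI).1
  let φ : Q ≃* Q :=
    { toFun := fun q => ⟨x * (q : G) * x⁻¹, hS.conj_mem x hxD.1 q q.2⟩
      invFun := fun q => ⟨x⁻¹ * (q : G) * x, conj_Q hS hxD.1 q.2⟩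
      left_inv := fun q => Subtype.ext (by show x⁻¹ * (x * (q : G) * x⁻¹) * x = q; group)
      right_inv := fun q => Subtype.ext (by show x * (x⁻¹ * (q : G) * x) * x⁻¹ = q; group)
      map_mul' := fun q r => Subtype.ext (by
        show x * ((q : G) * r) * x⁻¹ = x * q * x⁻¹ * (x * r * x⁻¹); group) }
  have hit : ∀ (n : ℕ) (q : Q), ((φ^[n] q : Q) : G) = x ^ n * q * (x ^ n)⁻¹ := by
    intro n q
    induction n with
    | zero => simp
    | succ n ih =>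
      rw [Function.iterate_succ_apply']
      show x * ((φ^[n] q : Q) : G) * x⁻¹ = _
      rw [ih, pow_succ']; group
  refine Cfsg.Lib.Solv.ThompsonKernel.fpf_isNilpotent (φ := φ) (r := p) ⟨hp, fun q hq => ?_, fun q => ?_⟩
  · apply Subtype.ext
    have h : x * (q : G) * x⁻¹ = q := congrArg Subtype.val hq
    exact fpf_I hS hxI hx1 q.2 (mul_inv_eq_iff_eq_mul.1 h).symm
  · apply Subtype.ext
    rw [hit, ← hxp, pow_orderOf_eq_one]; group

theorem invol_central_of {k₁ : G} (hk₁ : k₁ ∈ I) (hk₁1 : k₁ ≠ 1)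
    {s : G} (hs : s ∈ J) {q : G} (hq : q ∈ Q) : s * q = q * s := by
  classical
  have hnil := isNilpotent_Q_of hS hk₁ hk₁1
  have := Fact.mk Nat.prime_two
  obtain ⟨P⟩ := (inferInstance : Nonempty (Sylow 2 Q))
  have hPn : (P : Subgroup Q).Normal := Cfsg.Lib.Solv.normal_sylow_of_nilpotent P
  have hPne : Nontrivial ↥(P : Subgroup Q) := by
    rw [Subgroup.nontrivial_iff_ne_bot]
    exact P.ne_bot_of_dvd_card (even_iff_two_dvd.1 hS.even_card)
  have : Nontrivial (Subgroup.center ↥(P : Subgroup Q)) := P.2.center_nontrivial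
  obtain ⟨k, hk0, hk⟩ := (P.2.to_subgroup (Subgroup.center ↥(P : Subgroup Q))).nontrivial_iff_card.1 this
  obtain ⟨⟨⟨z, hzP⟩, hzc⟩, hz⟩ := exists_prime_orderOf_dvd_card' (G := Subgroup.center ↥(P : Subgroup Q)) 2
    (hk ▸ dvd_pow_self 2 (Nat.pos_iff_ne_zero.1 hk0))
  rw [← Subgroup.orderOf_coe, ← Subgroup.orderOf_coe] at hz
  change orderOf z = 2 at hz
  have hC : Subgroup.centralizer ({z} : Set Q) = ⊤ := by
    apply Subgroup.eq_top_of_card_eq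
    refine Nat.dvd_antisymm (Subgroup.card_subgroup_dvd_card _) ?_
    rw [← Nat.factorization_prime_le_iff_dvd Nat.card_pos.ne' Nat.card_pos.ne']
    intro r hr
    have := Fact.mk hr
    obtain ⟨R⟩ := (inferInstance : Nonempty (Sylow r Q))
    have hle : (R : Subgroup Q) ≤ Subgroup.centralizer ({z} : Set Q) := by
      intro y hy
      rw [Subgroup.mem_centralizer_iff]
      intro h hh
      rw [Set.mem_singleton_iff.1 hh]
      by_cases hr2 : r = 2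
      · subst hr2
        have hy' : y ∈ (P : Subgroup Q) := by
          rw [Subsingleton.elim (h := @Unique.instSubsingleton _ (Sylow.unique_of_normal P hPn)) P R]
          exact hy
        exact (congrArg Subtype.val (Subgroup.mem_center_iff.1 hzc ⟨y, hy'⟩)).symm
      · obtain ⟨j, hj⟩ := (IsPGroup.iff_orderOf.1 R.2 ⟨y, hy⟩)
        rw [Subgroup.orderOf_mk] at hj
        exact (Cfsg.Lib.Solv.commute_of_nilpotent hr Nat.prime_two hr2 hj (j := 1) (by rw [pow_one]; exact hz)).symm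
    have hd := Subgroup.card_dvd_of_le hle
    rw [R.card_eq_multiplicity] at hd
    exact (hr.pow_dvd_iff_le_factorization Nat.card_pos.ne').1 hd
  have hzJ : (z : G) ∈ J := by
    refine ⟨hS.le z.2, fun h => ?_, ?_⟩
    · have : z = 1 := Subtype.ext h
      rw [this, orderOf_one] at hz; omega
    · rw [← Subgroup.coe_mul, ← pow_two, ← hz, pow_orderOf_eq_one]; rfl
  obtain ⟨k, hk, rfl⟩ := conj_I_surjective hS hzJ hs
  have hkD := ((mem_I hS).1 hk).1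
  have hm : k * q * k⁻¹ ∈ Q := hS.conj_mem k hkD.1 q hq
  have hcomm : (z : G) * (k * q * k⁻¹) = k * q * k⁻¹ * z := by
    have h' : (⟨_, hm⟩ : Q) ∈ Subgroup.centralizer ({z} : Set Q) := by rw [hC]; exact Subgroup.mem_top _
    have := Subgroup.mem_centralizer_iff.1 h' z (Set.mem_singleton z)
    exact congrArg Subtype.val this
  calc k⁻¹ * (z : G) * k * q = k⁻¹ * ((z : G) * (k * q * k⁻¹)) * k := by group
    _ = k⁻¹ * (k * q * k⁻¹ * (z : G)) * k := by rw [hcomm]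
    _ = _ := by group

theorem isNilpotent_Q (h2 : ∃ x y : G, x ≠ 1 ∧ y ≠ 1 ∧ x ≠ y ∧ x * x = 1 ∧ y * y = 1 ∧ x * y = y * x) :
    Group.IsNilpotent Q := by
  obtain ⟨k, hk, hk1⟩ := exists_I_ne_one hS h2
  exact isNilpotent_Q_of hS hk hk1

theorem invol_central (h2 : ∃ x y : G, x ≠ 1 ∧ y ≠ 1 ∧ x ≠ y ∧ x * x = 1 ∧ y * y = 1 ∧ x * y = y * x)
    {s : G} (hs : s ∈ J) {q : G} (hq : q ∈ Q) : s * q = q * s := by
  obtain ⟨k, hk, hk1⟩ := exists_I_ne_one hS h2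
  exact invol_central_of hS hk hk1 hs hq

end Cfsg.Agent.RankOne
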